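import Mathlib

/-! Generation of `SL₂(k(α))` by two root groups over an infinite field `k`. -/

set_option autoImplicit false
set_option linter.unusedSectionVars false
set_option linter.style.haveILetI false
set_option linter.style.longLine false

open Matrix Polynomial
open scoped MatrixGroups

namespace Cfsg.Agent.Lib.PSLTwo.GenRoot

variable {k F : Type*} [Field k] [Field F] [Algebra k F]

/-- Upper root element. -/
def up2 (s : F) : SL(2, F) := ⟨!![1, s; 0, 1], by simp [det_fin_two]⟩

/-- Lower root element. -/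
def lo2 (s : F) : SL(2, F) := ⟨!![1, 0; s, 1], by simp [det_fin_two]⟩

theorem up2_val (s : F) : (up2 s : Matrix (Fin 2) (Fin 2) F) = !![1, s; 0, 1] := rfl

theorem lo2_val (s : F) : (lo2 s : Matrix (Fin 2) (Fin 2) F) = !![1, 0; s, 1] := rfl

theorem up2_add (s t : F) : up2 (s + t) = up2 s * up2 t := by
  apply Subtype.ext
  ext i j
  fin_cases i <;> fin_cases j <;> simp [up2_val, Matrix.SpecialLinearGroup.coe_mul, Matrix.mul_apply, Fin.sum_univ_two, add_comm]

theorem up2_zero : up2 (0 : F) = 1 := by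
  apply Subtype.ext
  ext i j
  fin_cases i <;> fin_cases j <;> simp [up2]

theorem up2_neg (s : F) : up2 (-s) = (up2 s)⁻¹ :=
  eq_inv_of_mul_eq_one_left (by rw [← up2_add, neg_add_cancel, up2_zero])

/-- All root elements generate. -/
theorem eq_top_of_roots {G : Subgroup SL(2, F)} (hU : ∀ s, up2 s ∈ G) (hL : ∀ s, lo2 s ∈ G) : G = ⊤ := by
  refine eq_top_iff.mpr fun g _ => ?_
  have key : ∀ h : SL(2, F), (h : Matrix (Fin 2) (Fin 2) F) 1 0 ≠ 0 → h ∈ G := by
    intro h hne
    set a := (h : Matrix (Fin 2) (Fin 2) F) 0 0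
    set c := (h : Matrix (Fin 2) (Fin 2) F) 1 0
    set d := (h : Matrix (Fin 2) (Fin 2) F) 1 1
    have hd := h.2
    rw [det_fin_two] at hd
    have e : h = up2 ((a - 1) / c) * lo2 c * up2 ((d - 1) / c) := by
      apply Subtype.ext
      ext i j
      fin_cases i <;> fin_cases j <;> simp [up2_val, lo2_val, Matrix.SpecialLinearGroup.coe_mul, Matrix.mul_apply, Fin.sum_univ_two]
      · field_simp; simp [a]
      · field_simp
        linear_combination (-1 : F) * hd
      · rfl
      · field_simp; simp [d]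
    rw [e]
    exact mul_mem (mul_mem (hU _) (hL _)) (hU _)
  by_cases hg : (g : Matrix (Fin 2) (Fin 2) F) 1 0 = 0
  · have h1 : g * lo2 1 ∈ G := key _ (by
      have hd := g.2
      rw [det_fin_two, hg, mul_zero, sub_zero] at hd
      simp [lo2_val, Matrix.SpecialLinearGroup.coe_mul, Matrix.mul_apply, Fin.sum_univ_two, hg]
      exact right_ne_zero_of_mul (hd ▸ one_ne_zero))
    simpa using mul_mem h1 (inv_mem (hL 1))
  · exact key g hg

/-- Euclidean normality of a pair of polynomials. -/
def Good (M : ℕ) (p q : k[X]) : Prop :=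
  p.natDegree = M ∧ q ≠ 0 ∧ q.natDegree = M - 1 ∧
    ∀ u : k[X], u ≠ 0 → u.natDegree < M → ∀ v : k[X],
      u * q - v * p ≠ 0 ∧ M - 1 ≤ (u * q - v * p).natDegree + u.natDegree

theorem good_descend {M : ℕ} {p q : k[X]} (h : Good (M + 2) p q) :
    ∃ (b a : k) (r : k[X]), b ≠ 0 ∧ p = (C b * X + C a) * q + r ∧ Good (M + 1) q r := by
  obtain ⟨hp, hq0, hq, hall⟩ := h
  have hq' : q.natDegree = M + 1 := hq
  have hsr := EuclideanDomain.div_add_mod p q
  set s := p / q with hs
  set r := p % q with hr
  have hrdeg : r.natDegree < q.natDegree := by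
    by_cases hr0 : r = 0
    · rw [hr0, natDegree_zero]; omega
    · exact natDegree_lt_natDegree hr0 (Polynomial.degree_mod_lt p hq0)
  have hp0 : p ≠ 0 := fun e => by rw [e, natDegree_zero] at hp; omega
  have hqs : (q * s).natDegree = M + 2 := by
    have : q * s = p - r := eq_sub_of_add_eq hsr
    rw [this, natDegree_sub_eq_left_of_natDegree_lt (by omega), hp]
  have hs0 : s ≠ 0 := fun e => by rw [e, mul_zero, natDegree_zero] at hqs; omega
  have hsdeg : s.natDegree = 1 := by
    rw [natDegree_mul hq0 hs0] at hqs; omega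
  obtain ⟨b, hb, a, hba⟩ := natDegree_eq_one.mp hsdeg
  refine ⟨b, a, r, hb, ?_, ?_⟩
  · rw [← hba] at hsr; linear_combination -hsr
  have hrs : s * q - 1 * p = -r := by linear_combination hsr
  obtain ⟨hr0, hrM⟩ := hall s hs0 (by omega) 1
  rw [hrs] at hr0 hrM
  rw [natDegree_neg] at hrM
  have hr0' : r ≠ 0 := fun e => hr0 (by rw [e, neg_zero])
  refine ⟨hq', hr0', by omega, fun u hu hud v => ?_⟩
  set w := u * r - v * q with hw
  by_contra hneg
  have hwdeg : w = 0 ∨ w.natDegree + u.natDegree < M := by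
    by_cases hw0 : w = 0
    · exact Or.inl hw0
    · exact Or.inr (Nat.not_le.mp fun hle => hneg ⟨hw0, hle⟩)
  have hv : v = 0 ∨ v.natDegree < u.natDegree := by
    by_cases hv0 : v = 0
    · exact Or.inl hv0
    right
    have e : v * q = u * r - w := by rw [hw]; ring
    have h1 : (v * q).natDegree ≤ max (u * r).natDegree w.natDegree := e ▸ natDegree_sub_le _ _
    rw [natDegree_mul hv0 hq0, natDegree_mul hu hr0'] at h1
    rcases hwdeg with hw0 | hw1
    · rw [hw0, natDegree_zero] at h1; omega
    · omega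
  set U := u * s + v with hU
  have hUdeg : U.natDegree = u.natDegree + 1 := by
    rw [hU, natDegree_add_eq_left_of_natDegree_lt, natDegree_mul hu hs0, hsdeg]
    rw [natDegree_mul hu hs0, hsdeg]
    rcases hv with rfl | hv
    · rw [natDegree_zero]; omega
    · omega
  have hU0 : U ≠ 0 := fun e => by rw [e, natDegree_zero] at hUdeg; omega
  obtain ⟨k1, k2⟩ := hall U hU0 (by omega) u
  have hwU : U * q - u * p = -w := by rw [hU, hw]; linear_combination u * hsr
  rw [hwU] at k1 k2
  rw [natDegree_neg] at k2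
  rcases hwdeg with hw0 | hw1
  · exact k1 (by rw [hw0, neg_zero])
  · omega

/-- A reachable step. -/
def Step (G : Subgroup SL(2, F)) (α : F) (q p : k[X]) : Prop :=
  ∃ A B A' B' : k, A * B' - A' * B ≠ 0 ∧ ∃ bad : Finset k, ∀ v ∉ bad, A + v * B ≠ 0 ∧ A' + v * B' ≠ 0 ∧
    ∃ d : k, d ≠ 0 ∧ ∀ l : k, l ≠ 0 → ∃ g ∈ G,
      (g : Matrix (Fin 2) (Fin 2) F) 1 0 = α * aeval α p / algebraMap k F ((A' + v * B') * l) ∧
      α * (g : Matrix (Fin 2) (Fin 2) F) 0 0 * algebraMap k F d =
        α * aeval α p / algebraMap k F (A' + v * B') - α * aeval α q / algebraMap k F (A + v * B)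

variable {G : Subgroup SL(2, F)} {α : F} (hU : ∀ c : k, up2 (algebraMap k F c) ∈ G)
  (hL : ∀ c : k, lo2 (algebraMap k F c * α) ∈ G)

include hU hL

theorem step_base [DecidableEq k] {r : k} (hr : r ≠ 0) : Step G α (0 : k[X]) (C r) := by
  refine ⟨1, 0, 0, 1, by norm_num, {0}, fun v hv => ?_⟩
  have hv0 : v ≠ 0 := by simpa using hv
  refine ⟨by norm_num, by simpa using hv0, r / v, div_ne_zero hr hv0, fun l hl =>
    ⟨lo2 (algebraMap k F (r / (v * l)) * α), hL _, ?_, ?_⟩⟩
  · rw [lo2_val]
    simp only [Matrix.of_apply, Matrix.cons_val_zero, Matrix.cons_val_one, aeval_C, zero_add, mul_one,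
      map_div₀, map_mul]
    ring
  · rw [lo2_val]
    simp only [Matrix.of_apply, Matrix.cons_val_zero, aeval_C, map_zero, mul_zero, zero_div, sub_zero,
      zero_add, mul_one, map_div₀, map_one]
    ring

theorem step_succ [DecidableEq k] {q p r : k[X]} {b a : k} (hb : b ≠ 0) (h : Step G α r q)
    (hp : p = (C b * X + C a) * q + r) : Step G α q p := by
  obtain ⟨A, B, A', B', hdet, bad, hgood⟩ := h
  refine ⟨A', B', a * A' + A, a * B' + B, fun e => hdet (by linear_combination -e),
    insert (-(a * A' + A) / (a * B' + B)) bad, fun v hv => ?_⟩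
  rw [Finset.mem_insert] at hv
  push Not at hv
  obtain ⟨hvr, hvb⟩ := hv
  obtain ⟨h1, h2, d, hd, hg⟩ := hgood v hvb
  have h3 : a * A' + A + v * (a * B' + B) ≠ 0 := fun e => by
    by_cases hB : a * B' + B = 0
    · have hA : a * A' + A = 0 := by rw [hB, mul_zero, add_zero] at e; exact e
      exact hdet (by linear_combination B' * hA - A' * hB)
    · exact hvr (by field_simp; linear_combination e)
  set w₀ := A + v * B with hw₀
  set w := A' + v * B' with hw
  set w' := a * A' + A + v * (a * B' + B) with hw'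
  set d' := -(w₀ / w') * d with hd'
  have hd'0 : d' ≠ 0 := mul_ne_zero (neg_ne_zero.mpr (div_ne_zero h1 h3)) hd
  refine ⟨h2, h3, d', hd'0, fun l hl => ?_⟩
  obtain ⟨g, hgG, hg10, hg00⟩ := hg l hl
  set c := b * w / (w' * d') with hc
  -- `U(c l)` followed by `L(d'/l)`
  refine ⟨lo2 (algebraMap k F (d' / l) * α) * (up2 (algebraMap k F (c * l)) * g),
    mul_mem (hL _) (mul_mem (hU _) hgG), ?_, ?_⟩
  all_goals
    simp only [Matrix.SpecialLinearGroup.coe_mul, up2_val, lo2_val, Matrix.mul_apply, Fin.sum_univ_two,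
      Matrix.of_apply, Matrix.cons_val_zero, Matrix.cons_val_one, zero_mul, one_mul, add_zero, zero_add]
    have i : Function.Injective (algebraMap k F) := (algebraMap k F).injective
    have n0 : algebraMap k F w₀ ≠ 0 := by rwa [ne_eq, map_eq_zero_iff _ i]
    have n1 : algebraMap k F w ≠ 0 := by rwa [ne_eq, map_eq_zero_iff _ i]
    have n2 : algebraMap k F w' ≠ 0 := by rwa [ne_eq, map_eq_zero_iff _ i]
    have n3 : algebraMap k F d ≠ 0 := by rwa [ne_eq, map_eq_zero_iff _ i]
    have n4 : algebraMap k F l ≠ 0 := by rwa [ne_eq, map_eq_zero_iff _ i]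
    have hwrel : algebraMap k F w' = algebraMap k F a * algebraMap k F w + algebraMap k F w₀ := by
      rw [← map_mul, ← map_add]; congr 1; rw [hw', hw, hw₀]; ring
    have hP : aeval α p = (algebraMap k F b * α + algebraMap k F a) * aeval α q + aeval α r := by
      rw [hp]; simp
    have hx : α * (g : Matrix (Fin 2) (Fin 2) F) 0 0 =
        (α * aeval α q / algebraMap k F w - α * aeval α r / algebraMap k F w₀) / algebraMap k F d :=
      eq_div_of_mul_eq n3 hg00
  · rw [mul_add, ← mul_assoc (algebraMap k F (d' / l) * α), hg10]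
    rw [show algebraMap k F (d' / l) * α * (g : Matrix (Fin 2) (Fin 2) F) 0 0 =
      algebraMap k F (d' / l) * (α * (g : Matrix (Fin 2) (Fin 2) F) 0 0) by ring, hx, hP, hc, hd']
    simp only [map_mul, map_div₀, map_neg]
    field_simp
    rw [hwrel]
    ring
  · rw [mul_add, hx, hg10, hP, hc, hd']
    simp only [map_mul, map_div₀, map_neg]
    field_simp
    rw [hwrel]
    ring

theorem step_of_good [DecidableEq k] : ∀ (M : ℕ) (p q : k[X]), Good (M + 1) p q → Step G α q p := by
  intro M
  induction M with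
  | zero =>
    intro p q h
    obtain ⟨hp, hq0, hq, -⟩ := h
    obtain ⟨r, rfl⟩ := natDegree_eq_zero.mp (show q.natDegree = 0 by omega)
    obtain ⟨b, hb, a, rfl⟩ := natDegree_eq_one.mp hp
    have hr : r ≠ 0 := fun e => hq0 (by rw [e, C_0])
    refine step_succ hU hL (div_ne_zero hb hr) (step_base hU hL hr) (a := a / r) ?_
    rw [add_zero, add_mul, mul_right_comm, ← C_mul, ← C_mul, div_mul_cancel₀ _ hr, div_mul_cancel₀ _ hr]
  | succ M ih =>
    intro p q h
    obtain ⟨b, a, r, hb, hp, hg⟩ := good_descend h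
    exact step_succ hU hL hb (ih q r hg) hp

theorem torus_mem {g : SL(2, F)} (hg : g ∈ G) {y : k} (hy : y ≠ 0)
    (hg10 : (g : Matrix (Fin 2) (Fin 2) F) 1 0 = algebraMap k F y) {t : k} (ht : t ≠ 0) :
    ∃ h ∈ G, (h : Matrix (Fin 2) (Fin 2) F) =
      !![algebraMap k F t, (g : Matrix (Fin 2) (Fin 2) F) 0 0 / algebraMap k F y * (algebraMap k F t⁻¹ - algebraMap k F t);
        0, algebraMap k F t⁻¹] := by
  set z := (g : Matrix (Fin 2) (Fin 2) F) 0 0 / algebraMap k F y with hz
  have hy' : algebraMap k F y ≠ 0 := by rwa [ne_eq, map_eq_zero_iff _ (algebraMap k F).injective]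
  have hlow : ∀ c : k, up2 z * lo2 (algebraMap k F c) * up2 (-z) ∈ G := by
    intro c
    have hmem := mul_mem (mul_mem hg (hU (-c / y ^ 2))) (inv_mem hg)
    have e : g * up2 (algebraMap k F (-c / y ^ 2)) * g⁻¹ = up2 z * lo2 (algebraMap k F c) * up2 (-z) := by
      rw [mul_inv_eq_iff_eq_mul]
      apply Subtype.ext
      have hd := g.2
      rw [det_fin_two, hg10] at hd
      ext i j
      fin_cases i <;> fin_cases j <;>
        simp [up2_val, lo2_val, Matrix.SpecialLinearGroup.coe_mul, Matrix.mul_apply, Fin.sum_univ_two, hg10, hz, map_div₀, Matrix.smul_cons, smul_eq_mul, -algebraMap_smul] <;> field_simp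
      · ring
      · linear_combination (algebraMap k F c * (g : Matrix (Fin 2) (Fin 2) F) 0 0) * hd
      · ring
      · linear_combination (algebraMap k F c) * hd
    exact e ▸ hmem
  have hupp : ∀ c : k, up2 z * up2 (algebraMap k F c) * up2 (-z) ∈ G := fun c => by
    rw [← up2_add, ← up2_add]
    simpa using hU c
  have hW : ∀ s : k, s ≠ 0 → up2 z * (up2 (algebraMap k F s) * lo2 (algebraMap k F (-s⁻¹)) * up2 (algebraMap k F s)) * up2 (-z) ∈ G := by
    intro s _
    have := mul_mem (mul_mem (hupp s) (hlow (-s⁻¹))) (hupp s)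
    convert this using 1
    rw [up2_neg]; group
  refine ⟨_, mul_mem (hW t ht) (inv_mem (hW 1 one_ne_zero)), ?_⟩
  have hti : algebraMap k F t ≠ 0 := by rwa [ne_eq, map_eq_zero_iff _ (algebraMap k F).injective]
  rw [show (up2 z * (up2 (algebraMap k F t) * lo2 (algebraMap k F (-t⁻¹)) * up2 (algebraMap k F t)) * up2 (-z)) *
      (up2 z * (up2 (algebraMap k F 1) * lo2 (algebraMap k F (-1⁻¹)) * up2 (algebraMap k F 1)) * up2 (-z))⁻¹ =
    up2 z * (up2 (algebraMap k F t) * lo2 (algebraMap k F (-t⁻¹)) * up2 (algebraMap k F t) *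
      (up2 (algebraMap k F 1) * lo2 (algebraMap k F (-1⁻¹)) * up2 (algebraMap k F 1))⁻¹) * up2 (-z) by
        rw [up2_neg]; group]
  simp only [Matrix.SpecialLinearGroup.coe_mul, Matrix.SpecialLinearGroup.coe_inv, up2_val, lo2_val,
    Matrix.adjugate_fin_two]
  ext i j
  fin_cases i <;> fin_cases j <;> simp [Matrix.mul_apply, Fin.sum_univ_two, Matrix.smul_cons, smul_eq_mul, -algebraMap_smul] <;> field_simp <;> (try ring_nf) <;> simp

/-- The infinite case. -/
theorem gen_infinite [Infinite k] (halg : IsAlgebraic k α) (hα : α ≠ 0)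
    (hgen : ∀ L : IntermediateField k F, α ∈ L → L = ⊤) : G = ⊤ := by
  classical
  have hint : IsIntegral k α := halg.isIntegral
  set f := minpoly k α with hf
  have hfm : f.Monic := minpoly.monic hint
  set n := f.natDegree with hn
  have hn0 : 0 < n := minpoly.natDegree_pos hint
  have hpoly : ∀ z : F, ∃ r : k[X], r.natDegree < n ∧ aeval α r = z := by
    intro z
    have htop := hgen (IntermediateField.adjoin k {α}) (IntermediateField.mem_adjoin_simple_self k α)
    have hz : z ∈ (IntermediateField.adjoin k {α}).toSubalgebra := htop.symm ▸ IntermediateField.mem_top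
    rw [IntermediateField.adjoin_simple_toSubalgebra_of_isAlgebraic halg, Algebra.adjoin_singleton_eq_range_aeval] at hz
    obtain ⟨r, hr⟩ := hz
    refine ⟨r %ₘ f, natDegree_modByMonic_lt r hfm (minpoly.ne_one k α), ?_⟩
    rw [← hr]
    exact Polynomial.aeval_modByMonic_eq_self_of_root (minpoly.aeval k α)
  -- multiples of `1/α`, then everything
  suffices hS : ∀ s : F, up2 s ∈ G by
    refine eq_top_of_roots hS fun s => ?_
    have hw : up2 α⁻¹ * lo2 (-α) * up2 α⁻¹ ∈ G :=
      mul_mem (mul_mem (hS _) (by simpa using hL (-1))) (hS _)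
    have h := mul_mem (mul_mem hw (hS (-s / α ^ 2))) (inv_mem hw)
    have e : up2 α⁻¹ * lo2 (-α) * up2 α⁻¹ * up2 (-s / α ^ 2) * (up2 α⁻¹ * lo2 (-α) * up2 α⁻¹)⁻¹ = lo2 s := by
      rw [mul_inv_eq_iff_eq_mul]
      apply Subtype.ext
      ext i j
      fin_cases i <;> fin_cases j <;> simp [up2_val, lo2_val, Matrix.SpecialLinearGroup.coe_mul, Matrix.mul_apply, Fin.sum_univ_two] <;> field_simp <;> (try ring_nf) <;> simp
    exact e ▸ h
  rcases (show n = 1 ∨ 2 ≤ n by omega) with hn1 | hn2
  · intro s
    obtain ⟨r, hr, rfl⟩ := hpoly s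
    obtain ⟨c, rfl⟩ := natDegree_eq_zero.mp (show r.natDegree = 0 by omega)
    simpa using hU c
  obtain ⟨M, hM⟩ : ∃ M, n = M + 2 := ⟨n - 2, by omega⟩
  set P := f.divX with hP
  have hfe : f = P * X + C (f.coeff 0) := (divX_mul_X_add f).symm
  have hPdeg : P.natDegree = M + 1 := by rw [hP, natDegree_divX_eq_natDegree_tsub_one]; omega
  have hPm : P.Monic := by
    rw [Monic, leadingCoeff, hPdeg, hP, coeff_divX, show M + 1 + 1 = f.natDegree by omega]
    exact hfm
  have hf0 : f.coeff 0 ≠ 0 := minpoly.coeff_zero_ne_zero hint hα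
  have hPα : α * aeval α P = -algebraMap k F (f.coeff 0) := by
    have := minpoly.aeval k α
    rw [← hf, hfe] at this
    simp at this
    linear_combination this
  obtain ⟨t, ht0, ht1⟩ : ∃ t : k, t ≠ 0 ∧ t * t ≠ 1 := by
    obtain ⟨t, ht⟩ := Infinite.exists_notMem_finset ({0, 1, -1} : Finset k)
    simp at ht
    exact ⟨t, ht.1, fun e => (mul_self_eq_one_iff.mp e).elim ht.2.1 ht.2.2⟩
  -- centres of tori lie in the root subgroup
  let V : Submodule k F :=
    { carrier := {s | ∀ c : k, up2 (algebraMap k F c * s) ∈ G}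
      add_mem' := fun {a b} ha hb c => by rw [mul_add, up2_add]; exact mul_mem (ha c) (hb c)
      zero_mem' := fun c => by rw [mul_zero, up2_zero]; exact one_mem _
      smul_mem' := fun d s hs c => by rw [Algebra.smul_def, ← mul_assoc, ← map_mul]; exact hs _ }
  suffices hV : V = ⊤ from fun s => by simpa using (hV.symm ▸ Submodule.mem_top : s ∈ V) 1
  have h1V : (1 : F) ∈ V := fun c => by simpa using hU c
  have hgoodV : ∀ q : k[X], Good (M + 1) P q → α⁻¹ ∈ V ∧ aeval α q ∈ V := by
    intro q hq
    obtain ⟨A, B, A', B', hdet, bad, hb⟩ := step_of_good hU hL M P q hq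
    have key : ∀ v ∉ bad, algebraMap k F (A + v * B) * α⁻¹ +
        algebraMap k F ((A' + v * B') / f.coeff 0) * aeval α q ∈ V := by
      intro v hv
      obtain ⟨hw0, hw, d, hd, hgl⟩ := hb v hv
      set w₀ := A + v * B
      set w := A' + v * B'
      intro c
      -- two tori with the same `t` and centres differing by any multiple
      set κ : F := (α * aeval α P / algebraMap k F w - α * aeval α q / algebraMap k F w₀) /
        (α * algebraMap k F d) with hκ
      have tor : ∀ l : k, l ≠ 0 → ∃ h ∈ G, (h : Matrix (Fin 2) (Fin 2) F) =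
          !![algebraMap k F t, κ / algebraMap k F (-f.coeff 0 / (w * l)) * (algebraMap k F t⁻¹ - algebraMap k F t);
            0, algebraMap k F t⁻¹] := by
        intro l hl
        obtain ⟨g, hgG, hg10, hg00⟩ := hgl l hl
        have hg10' : (g : Matrix (Fin 2) (Fin 2) F) 1 0 = algebraMap k F (-f.coeff 0 / (w * l)) := by
          rw [hg10, hPα, map_div₀, map_neg]
        have hg00' : (g : Matrix (Fin 2) (Fin 2) F) 0 0 = κ := by
          have hd' : algebraMap k F d ≠ 0 := by rwa [ne_eq, map_eq_zero_iff _ (algebraMap k F).injective]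
          rw [hκ, ← hg00]; field_simp
        exact hg00' ▸ torus_mem hU hL hgG (div_ne_zero (neg_ne_zero.mpr hf0) (mul_ne_zero hw hl)) hg10' ht0
      -- solve for the multiplier
      set μ : k := c * d * w₀ / ((t⁻¹ - t) * t) with hμ
      obtain ⟨l, hl, hl'⟩ : ∃ l : k, l ≠ 0 ∧ l + μ ≠ 0 := by
        obtain ⟨l, hl⟩ := Infinite.exists_notMem_finset ({0, -μ} : Finset k)
        simp at hl
        exact ⟨l, hl.1, fun e => hl.2 (eq_neg_of_add_eq_zero_left e)⟩
      obtain ⟨h₁, hh₁, e₁⟩ := tor (l + μ) hl'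
      obtain ⟨h₂, hh₂, e₂⟩ := tor l hl
      have hmem := mul_mem hh₁ (inv_mem hh₂)
      have hne : (t⁻¹ - t) * t ≠ 0 := by
        rw [sub_mul, inv_mul_cancel₀ ht0]
        exact sub_ne_zero.mpr (Ne.symm ht1)
      have e : h₁ * h₂⁻¹ = up2 (algebraMap k F c * (algebraMap k F w₀ * α⁻¹ +
          algebraMap k F (w / f.coeff 0) * aeval α q)) := by
        apply Subtype.ext
        rw [Matrix.SpecialLinearGroup.coe_mul, Matrix.SpecialLinearGroup.coe_inv, e₁, e₂, up2_val,
          Matrix.adjugate_fin_two]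
        have i : Function.Injective (algebraMap k F) := (algebraMap k F).injective
        have n0 : algebraMap k F w₀ ≠ 0 := by rwa [ne_eq, map_eq_zero_iff _ i]
        have n1 : algebraMap k F w ≠ 0 := by rwa [ne_eq, map_eq_zero_iff _ i]
        have n2 : algebraMap k F d ≠ 0 := by rwa [ne_eq, map_eq_zero_iff _ i]
        have n3 : algebraMap k F (f.coeff 0) ≠ 0 := by rwa [ne_eq, map_eq_zero_iff _ i]
        have n4 : algebraMap k F t ≠ 0 := by rwa [ne_eq, map_eq_zero_iff _ i]
        have n5 : algebraMap k F l ≠ 0 := by rwa [ne_eq, map_eq_zero_iff _ i]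
        have n6 : algebraMap k F (l + μ) ≠ 0 := by rwa [ne_eq, map_eq_zero_iff _ i]
        have n7 : algebraMap k F ((t⁻¹ - t) * t) ≠ 0 := by rwa [ne_eq, map_eq_zero_iff _ i]
        ext i j
        fin_cases i <;> fin_cases j <;> simp [Matrix.mul_apply, Fin.sum_univ_two] <;> field_simp
        have hκ' : κ = (-algebraMap k F (f.coeff 0) / algebraMap k F w - α * aeval α q / algebraMap k F w₀) /
            (α * algebraMap k F d) := by rw [hκ, hPα]
        have hμ' : algebraMap k F μ * (1 - algebraMap k F t * algebraMap k F t) =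
            algebraMap k F c * algebraMap k F d * algebraMap k F w₀ := by
          rw [← map_mul, ← map_mul, ← map_mul, ← map_one (algebraMap k F), ← map_sub, ← map_mul]
          congr 1
          have e3 : (t⁻¹ - t) * t = 1 - t * t := by rw [sub_mul, inv_mul_cancel₀ ht0]
          rw [hμ, ← e3, div_mul_cancel₀ _ hne]
        rw [hκ']
        field_simp
        linear_combination (algebraMap k F w₀ * algebraMap k F (f.coeff 0) + α * aeval α q * algebraMap k F w) * hμ'
      exact e ▸ hmem
    obtain ⟨v, hv⟩ := Infinite.exists_notMem_finset bad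
    obtain ⟨v', hv'⟩ := Infinite.exists_notMem_finset (insert v bad)
    rw [Finset.mem_insert] at hv'
    push Not at hv'
    have k1 := key v hv
    have k2 := key v' hv'.2
    have hD : (v' - v) * (A * B' - A' * B) ≠ 0 := mul_ne_zero (sub_ne_zero.mpr hv'.1) hdet
    set D := (v' - v) * (A * B' - A' * B)
    have hD' : algebraMap k F D ≠ 0 := by rwa [ne_eq, map_eq_zero_iff _ (algebraMap k F).injective]
    have hf0' : algebraMap k F (f.coeff 0) ≠ 0 := by rwa [ne_eq, map_eq_zero_iff _ (algebraMap k F).injective]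
    refine ⟨?_, ?_⟩
    · have e : α⁻¹ = ((A' + v' * B') / D) • (algebraMap k F (A + v * B) * α⁻¹ + algebraMap k F ((A' + v * B') / f.coeff 0) * aeval α q) -
          ((A' + v * B') / D) • (algebraMap k F (A + v' * B) * α⁻¹ + algebraMap k F ((A' + v' * B') / f.coeff 0) * aeval α q) := by
        simp only [Algebra.smul_def, map_div₀, map_add, map_mul]
        field_simp
        simp only [D, map_mul, map_sub]
        ring
      rw [e]; exact V.sub_mem (V.smul_mem _ k1) (V.smul_mem _ k2)
    · have e : aeval α q = (f.coeff 0 * (A + v * B) / D) • (algebraMap k F (A + v' * B) * α⁻¹ + algebraMap k F ((A' + v' * B') / f.coeff 0) * aeval α q) -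
          (f.coeff 0 * (A + v' * B) / D) • (algebraMap k F (A + v * B) * α⁻¹ + algebraMap k F ((A' + v * B') / f.coeff 0) * aeval α q) := by
        simp only [Algebra.smul_def, map_div₀, map_add, map_mul]
        field_simp
        simp only [D, map_mul, map_sub]
        ring
      rw [e]; exact V.sub_mem (V.smul_mem _ k2) (V.smul_mem _ k1)
  -- normal pairs are dense
  let co : ℕ → (Fin (M + 1)) → ℕ → k := fun b i l => ((X ^ (b + (i : ℕ)) : k[X]) %ₘ P).coeff l
  let Δ : Fin (M + 1) → MvPolynomial (Fin (M + 1)) k := fun j =>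
    Matrix.det (Matrix.of fun a b : Fin ((j : ℕ) + 1) => ∑ i, MvPolynomial.C (co b i (M - j + a)) * MvPolynomial.X i)
  have hΔne : ∀ j, Δ j ≠ 0 := by
    intro j hz
    have h := congrArg (MvPolynomial.eval fun i : Fin (M + 1) => if (i : ℕ) = M - j then (1 : k) else 0) hz
    simp only [Δ, map_zero, RingHom.map_det] at h
    refine one_ne_zero (((Matrix.det_one (n := Fin ((j : ℕ) + 1)) (R := k)).symm.trans
      (Eq.trans (congrArg Matrix.det ?_) h)) : (1 : k) = 0)
    ext a b
    have hj := j.isLt
    simp only [RingHom.mapMatrix_apply, Matrix.map_apply, Matrix.of_apply, map_sum, map_mul, MvPolynomial.eval_C, MvPolynomial.eval_X]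
    rw [Finset.sum_eq_single (⟨M - j, by omega⟩ : Fin (M + 1)) (fun i _ hi => by
      rw [if_neg (fun e => hi (Fin.ext e)), mul_zero]) (by simp)]
    simp only [if_true, mul_one]
    show _ = co b ⟨M - j, _⟩ (M - j + a)
    simp only [co]
    have hb := b.isLt
    rw [(modByMonic_eq_self_iff hPm).mpr (by
      rw [degree_X_pow, degree_eq_natDegree hPm.ne_zero, hPdeg]
      exact_mod_cast (show (b : ℕ) + (M - j) < M + 1 by omega)), coeff_X_pow, Matrix.one_apply]
    by_cases hab : a = b
    · subst hab; rw [if_pos rfl, if_pos (by omega)]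
    · rw [if_neg hab, if_neg (fun e => hab (Fin.ext (by omega)))]
  let qv : (Fin (M + 1) → k) → k[X] := fun v => ∑ i, C (v i) * X ^ (i : ℕ)
  have hqdeg : ∀ v, (qv v).natDegree ≤ M := fun v =>
    natDegree_sum_le_of_forall_le _ _ fun i _ =>
      (natDegree_C_mul_X_pow_le _ _).trans (by have := i.isLt; omega)
  have hgood : ∀ v, (∀ j, MvPolynomial.eval v (Δ j) ≠ 0) → Good (M + 1) P (qv v) := by
    intro v hv
    have key : ∀ u : k[X], u ≠ 0 → u.natDegree < M + 1 → ∀ w : k[X],
        u * qv v - w * P ≠ 0 ∧ M ≤ (u * qv v - w * P).natDegree + u.natDegree := by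
      intro u hu hud w
      set R := u * qv v - w * P with hR
      by_contra hneg
      have hRd : R = 0 ∨ R.natDegree + u.natDegree < M := by
        by_cases h0 : R = 0
        · exact Or.inl h0
        · exact Or.inr (Nat.not_le.mp fun hle => hneg ⟨h0, hle⟩)
      set j : Fin (M + 1) := ⟨u.natDegree, hud⟩
      have hmod : (u * qv v) %ₘ P = R := by
        refine ((div_modByMonic_unique w R hPm ⟨by rw [hR]; ring, ?_⟩).2)
        rcases hRd with h0 | h1
        · rw [h0, degree_zero]; exact bot_lt_iff_ne_bot.mpr (fun e => hPm.ne_zero (degree_eq_bot.mp e))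
        · refine degree_lt_degree ?_
          omega
      have hexp : u * qv v = ∑ b ∈ Finset.range (u.natDegree + 1), ∑ i : Fin (M + 1), (u.coeff b * v i) • (X ^ (b + (i : ℕ)) : k[X]) := by
        conv_lhs => rw [u.as_sum_range_C_mul_X_pow]
        rw [Finset.sum_mul]
        refine Finset.sum_congr rfl fun b _ => ?_
        rw [Finset.mul_sum]
        refine Finset.sum_congr rfl fun i _ => ?_
        rw [smul_eq_C_mul, C_mul, pow_add]; ring
      refine hv j ?_
      simp only [Δ, RingHom.map_det]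
      refine Matrix.exists_mulVec_eq_zero_iff.mp ⟨fun b : Fin ((j : ℕ) + 1) => u.coeff b, fun e => ?_, ?_⟩
      · exact hu (leadingCoeff_eq_zero.mp (congrFun e ⟨u.natDegree, Nat.lt_succ_self _⟩))
      · funext a
        have hz : R.coeff (M - j + a) = 0 := by
          rcases hRd with h0 | h1
          · rw [h0, coeff_zero]
          · exact coeff_eq_zero_of_natDegree_lt (show R.natDegree < M - u.natDegree + a by omega)
        rw [← hmod, hexp] at hz
        rw [← modByMonicHom_apply, map_sum] at hz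
        simp only [map_sum, map_smul, modByMonicHom_apply, finset_sum_coeff, coeff_smul, smul_eq_mul] at hz
        rw [Finset.sum_range] at hz
        simp only [Matrix.mulVec, dotProduct, RingHom.mapMatrix_apply, Matrix.map_apply, Matrix.of_apply, map_sum, map_mul,
          MvPolynomial.eval_C, MvPolynomial.eval_X, Pi.zero_apply, Finset.sum_mul, co]
        refine Eq.trans ?_ hz
        refine Finset.sum_congr rfl fun b _ => Finset.sum_congr rfl fun i _ => ?_
        ring
    obtain ⟨hne, hle⟩ := key 1 one_ne_zero (by simp) 0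
    simp only [one_mul, zero_mul, sub_zero, natDegree_one, add_zero] at hne hle
    exact ⟨hPdeg, hne, le_antisymm (hqdeg v) hle, key⟩
  obtain ⟨v₀, hv₀⟩ : ∃ v, MvPolynomial.eval v (∏ j, Δ j) ≠ 0 := by
    by_contra h
    push Not at h
    exact Finset.prod_ne_zero_iff.mpr (fun j _ => hΔne j) (MvPolynomial.funext (by simpa using h))
  rw [map_prod, Finset.prod_ne_zero_iff] at hv₀
  have hinvV := (hgoodV _ (hgood v₀ fun j => hv₀ j (Finset.mem_univ j))).1
  have hpowV : ∀ i : Fin (M + 1), α ^ (i : ℕ) ∈ V := by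
    intro i
    by_contra hi
    obtain ⟨φ, hφi, hφV⟩ := Submodule.exists_dual_map_eq_bot_of_notMem hi inferInstance
    have hφ : ∀ x ∈ V, φ x = 0 := fun x hx => by
      have : φ x ∈ V.map φ := ⟨x, hx, rfl⟩
      rwa [hφV, Submodule.mem_bot] at this
    set L : MvPolynomial (Fin (M + 1)) k := ∑ l : Fin (M + 1), MvPolynomial.C (φ (α ^ (l : ℕ))) * MvPolynomial.X l with hL'
    have hLne : L ≠ 0 := fun e => hφi (by
      have := congrArg (MvPolynomial.eval fun l : Fin (M + 1) => if l = i then (1 : k) else 0) e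
      simpa [hL', map_sum] using this)
    obtain ⟨v, hv⟩ : ∃ v, MvPolynomial.eval v ((∏ j, Δ j) * L) ≠ 0 := by
      by_contra h
      push Not at h
      exact mul_ne_zero (Finset.prod_ne_zero_iff.mpr fun j _ => hΔne j) hLne (MvPolynomial.funext (by simpa using h))
    rw [map_mul, mul_ne_zero_iff, map_prod, Finset.prod_ne_zero_iff] at hv
    have hq := (hgoodV _ (hgood v fun j => hv.1 j (Finset.mem_univ j))).2
    refine hv.2 ?_
    have := hφ _ hq
    simp only [qv, map_sum, map_mul, aeval_C, map_pow, aeval_X, ← Algebra.smul_def, map_smul, smul_eq_mul] at this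
    rw [hL', map_sum, ← this]
    refine Finset.sum_congr rfl fun l _ => ?_
    simp [mul_comm]
  have hall : ∀ r : k[X], r.natDegree ≤ M → aeval α r ∈ V := fun r hr => by
    rw [r.as_sum_range' (M + 1) (by omega), map_sum]
    refine V.sum_mem fun i hi => ?_
    rw [aeval_monomial, ← Algebra.smul_def]
    exact V.smul_mem _ (hpowV ⟨i, Finset.mem_range.mp hi⟩)
  refine eq_top_iff.mpr fun s _ => ?_
  obtain ⟨r, hr, rfl⟩ := hpoly s
  have hrest : (r - C (r.coeff (M + 1)) * P).natDegree ≤ M := by
    rw [natDegree_le_iff_coeff_eq_zero]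
    intro m hm
    rw [coeff_sub, coeff_C_mul]
    rcases eq_or_lt_of_le (show M + 1 ≤ m from hm) with e | e
    · rw [← e, show P.coeff (M + 1) = 1 by rw [← hPdeg]; exact hPm, mul_one, sub_self]
    · rw [coeff_eq_zero_of_natDegree_lt (show r.natDegree < m by omega),
        coeff_eq_zero_of_natDegree_lt (show P.natDegree < m by omega), mul_zero, sub_zero]
  have h := V.add_mem (hall _ hrest) (V.smul_mem (r.coeff (M + 1)) (V.smul_mem (-f.coeff 0) hinvV))
  convert h using 1
  rw [map_sub, map_mul, aeval_C, Algebra.smul_def, Algebra.smul_def, map_neg, ← hPα]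
  field_simp
  ring

end Cfsg.Agent.Lib.PSLTwo.GenRoot
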