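import Cfsg.Agent.Lib.PSLTwo.Copies
import Cfsg.Agent.Lib.PSLTwo.MaxTools

/-! The four-groups inside `L`, `q` odd. -/

set_option autoImplicit false
set_option linter.unusedSectionVars false
set_option linter.style.haveILetI false
set_option linter.style.longLine false

open Matrix MulAction OnePoint
open scoped MatrixGroups

namespace Cfsg.Agent.Lib.PSLTwo

variable {F : Type*} [Field F] [Fintype F] [DecidableEq F]

variable {x y : F} (hxy : x ^ 2 + y ^ 2 = -1)

theorem isKleinFour_qV (h2 : (2 : F) ≠ 0) : IsKleinFour (qV hxy) := by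
  refine ⟨card_qV hxy h2, ?_⟩
  obtain ⟨-, -, hs, -⟩ := klein_props hxy h2 le_rfl (show qV hxy ≤ qN hxy from (qV_le_qA hxy h2).trans (qA_le_qN hxy h2))
  have h1 : Monoid.exponent (qV hxy) ∣ 2 := Monoid.exponent_dvd_of_forall_pow_eq_one fun g => Subtype.ext (by
    rw [Subgroup.coe_pow, pow_two]
    exact congrArg Subtype.val (hs g (Subgroup.mem_subgroupOf.mpr g.2)))
  rcases (Nat.dvd_prime Nat.prime_two).mp h1 with h | h
  · exfalso
    have := card_qV hxy h2
    haveI hss := Monoid.exp_eq_one_iff.mp h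
    have h1' := Nat.card_of_subsingleton (1 : qV hxy)
    omega
  · exact h

theorem map_conj_qN_fix (h2 : (2 : F) ≠ 0) {g : PGL(2, F)}
    (h : (qV hxy).map (MulAut.conj g).toMonoidHom = qV hxy) : g ∈ qN hxy := by
  refine mem_qN_of hxy ?_ ?_
  · exact h ▸ ⟨qI hxy, Or.inr (Or.inl rfl), rfl⟩
  · exact h ▸ ⟨qJ hxy, Or.inr (Or.inr (Or.inl rfl)), rfl⟩

/-- Every four-group in `L` is conjugate in `PGL₂` to the standard one. -/
theorem exists_conj_qV (h2 : (2 : F) ≠ 0) {V : Subgroup PGL(2, F)} (hV : V ≤ Lsub F) (hK : IsKleinFour V) :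
    ∃ γ : PGL(2, F), V.map (MulAut.conj γ).toMonoidHom = qV hxy := by
  classical
  haveI := hK
  have hsq : ∀ g ∈ V, g * g = 1 := fun g hg => by
    have := congrArg Subtype.val (IsKleinFour.mul_self (⟨g, hg⟩ : V))
    simpa using this
  obtain ⟨⟨a, haV⟩, ha1⟩ : ∃ a : V, a ≠ 1 := by
    haveI : Nontrivial V := Finite.one_lt_card_iff_nontrivial.mp (by rw [hK.card_four]; norm_num)
    exact exists_ne 1
  obtain ⟨⟨b, hbV⟩, hb1, hba⟩ : ∃ b : V, b ≠ 1 ∧ b ≠ ⟨a, haV⟩ := by
    haveI := Fintype.ofFinite V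
    by_contra h
    push Not at h
    have : (Finset.univ : Finset V) ⊆ {1, ⟨a, haV⟩} := fun b _ => by
      by_cases e : b = 1
      · simp [e]
      · simp [h b e]
    have := (Finset.card_le_card this).trans Finset.card_le_two
    rw [Finset.card_univ, ← Nat.card_eq_fintype_card, hK.card_four] at this
    omega
  have hc : a * b = b * a := by
    have h1 : a * b * (a * b) = 1 := hsq _ (mul_mem haV hbV)
    have ha2 := hsq a haV
    have hb2 := hsq b hbV
    calc a * b = (a * b * (a * b))⁻¹ * (a * b) := by rw [h1, inv_one, one_mul]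
      _ = b⁻¹ * a⁻¹ := by group
      _ = b * a := by rw [inv_eq_of_mul_eq_one_right ha2, inv_eq_of_mul_eq_one_right hb2]
  obtain ⟨γ, hγa, hγb⟩ := klein_conj hxy h2 (hV haV) (hV hbV) (hsq a haV) (hsq b hbV)
    (fun e => ha1 (Subtype.ext e)) (fun e => hb1 (Subtype.ext e)) (fun e => hba (Subtype.ext e.symm)) hc
  refine ⟨γ, (Subgroup.eq_of_le_of_card_ge ?_ (le_of_eq ?_)).symm⟩
  · rintro g (rfl | rfl | rfl | rfl)
    · exact one_mem _
    · exact ⟨a, haV, hγa⟩
    · exact ⟨b, hbV, hγb⟩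
    · refine ⟨a * b, mul_mem haV hbV, ?_⟩
      rw [map_mul, ← qI_mul_qJ, ← hγa, ← hγb]; rfl
  · rw [card_conj_map, hK.card_four, card_qV hxy h2]

theorem isKleinFour_map {G G' : Type*} [Group G] [Group G'] {f : G →* G'} (hf : Function.Injective f)
    (V : Subgroup G) : IsKleinFour (V.map f) ↔ IsKleinFour V := by
  let e := V.equivMapOfInjective f hf
  constructor
  · rintro ⟨h1, h2⟩
    exact ⟨(Nat.card_congr e.toEquiv).trans h1, (Monoid.exponent_eq_of_mulEquiv e).trans h2⟩
  · rintro ⟨h1, h2⟩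
    exact ⟨(Nat.card_congr e.toEquiv).symm.trans h1, (Monoid.exponent_eq_of_mulEquiv e).symm.trans h2⟩

theorem map_conj_map_toP (V : Subgroup (Matrix.ProjectiveSpecialLinearGroup (Fin 2) F))
    (g : Matrix.ProjectiveSpecialLinearGroup (Fin 2) F) :
    (V.map (MulAut.conj g).toMonoidHom).map (toP F) = (V.map (toP F)).map (MulAut.conj (toP F g)).toMonoidHom := by
  rw [Subgroup.map_map, Subgroup.map_map]
  congr 1
  ext h
  simp

end Cfsg.Agent.Lib.PSLTwo
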